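import Cfsg.Agent.Chev.RelSL2
import Cfsg.Agent.Cl.Congr
import Cfsg.Agent.Cl.SLCard
import Cfsg.Agent.GT.SylowRel
import Cfsg.Agent.J4W.F

/-!
# Recognising `L₂(32):5` from relations
-/

set_option autoImplicit false

namespace Cfsg.Agent.J4W

open Cfsg.Agent.GT Cfsg.Agent.Chev Subgroup Matrix

open F32

variable {G : Type*} [Group G]

/-- The relations. -/
structure Rel (s u n f : G) : Prop where
  ss : s * s = 1
  nn : n * n = 1
  u31 : u ^ 31 = 1
  f5 : f ^ 5 = 1
  nu : n * u * n * u = 1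
  ns : n * s * (n * s) * (n * s) = 1
  fs : f * s = s * f
  fn : f * n = n * f
  fu : f * u = u * u * f
  pol : s * (u ^ 2 * s) * u ^ 3 = u ^ 5 * s
  u1 : u ≠ 1

/-- conjugates of `s` -/
def cs (s u : G) (i : ℕ) : G := u ^ i * s * (u ^ i)⁻¹

theorem cs_add (s u : G) (i j : ℕ) : cs s u (i + j) = u ^ i * cs s u j * (u ^ i)⁻¹ := by
  simp [cs, pow_add, mul_assoc]

namespace Rel

variable {s u n f : G} (R : Rel s u n f)
include R

theorem pow_mod (i : ℕ) : u ^ (i % 31) = u ^ i := (pow_eq_pow_mod i R.u31).symm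
theorem cs_mod (i : ℕ) : cs s u (i % 31) = cs s u i := by rw [cs, R.pow_mod, cs]
theorem cs_sq (i : ℕ) : cs s u i * cs s u i = 1 := by rw [cs, conj_mul, R.ss]; simp
theorem cs_inv (i : ℕ) : (cs s u i)⁻¹ = cs s u i := inv_eq_of_mul_eq_one_right (R.cs_sq i)
theorem s_inv : s⁻¹ = s := inv_eq_of_mul_eq_one_right R.ss
theorem n_inv : n⁻¹ = n := inv_eq_of_mul_eq_one_right R.nn
theorem nun : n * u * n⁻¹ = u⁻¹ := by rw [R.n_inv]; exact eq_inv_of_mul_eq_one_left R.nu
theorem n_pow (i : ℕ) : n * u ^ i = (u ^ i)⁻¹ * n := by rw [← inv_pow, ← R.nun, conj_pow]; group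
theorem fuf : f * u * f⁻¹ = u ^ 2 := by rw [R.fu, pow_two]; group
theorem f_cs (i : ℕ) : f * cs s u i * f⁻¹ = cs s u (2 * i) := by
  rw [cs, cs, pow_mul, ← R.fuf, conj_pow]
  calc _ = f * u ^ i * f⁻¹ * (f * s * f⁻¹) * (f * u ^ i * f⁻¹)⁻¹ := by group
    _ = _ := by rw [R.fs, mul_inv_cancel_right]

/-- the addition relation -/
def P (_ : Rel s u n f) (i k : ℕ) : Prop := s * cs s u i = cs s u k

theorem dbl {i k : ℕ} (h : R.P i k) : R.P (2 * i % 31) (2 * k % 31) := by
  rw [P, R.cs_mod, R.cs_mod, ← R.f_cs, ← R.f_cs, ← h, ← conj_mul, R.fs, mul_inv_cancel_right]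
theorem swp {i k : ℕ} (h : R.P i k) : R.P k i := by rw [P, ← h, ← mul_assoc, R.ss, one_mul]
theorem neg {i k : ℕ} (h : R.P i k) (hi : i ≤ 31) : R.P (31 - i) ((k + 31 - i) % 31) := by
  have h1 : cs s u i * s = cs s u k := by
    rw [← R.cs_inv k, ← h, _root_.mul_inv_rev, R.cs_inv, R.s_inv]
  have h2 : cs s u (31 - i + i) = s := by rw [Nat.sub_add_cancel hi, cs, R.u31]; simp
  rw [P, R.cs_mod, show k + 31 - i = 31 - i + k by omega, cs_add, ← h1, ← conj_mul, ← cs_add, h2, cs]

theorem zech : ∀ i, 0 < i → i < 31 → R.P i (zl i) := by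
  have r2 : R.P 2 5 := by
    rw [P, cs, cs, ← R.pol]; group
  have r4 : R.P 4 10 := R.dbl r2
  have r5 : R.P 5 2 := R.swp r2
  have r29 : R.P 29 3 := R.neg r2 (by decide)
  have r8 : R.P 8 20 := R.dbl r4
  have r10 : R.P 10 4 := R.swp r4
  have r27 : R.P 27 6 := R.neg r4 (by decide)
  have r26 : R.P 26 28 := R.neg r5 (by decide)
  have r3 : R.P 3 29 := R.swp r29
  have r16 : R.P 16 9 := R.dbl r8
  have r20 : R.P 20 8 := R.swp r8
  have r23 : R.P 23 12 := R.neg r8 (by decide)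
  have r21 : R.P 21 25 := R.neg r10 (by decide)
  have r6 : R.P 6 27 := R.swp r27
  have r28 : R.P 28 26 := R.swp r26
  have r1 : R.P 1 18 := R.dbl r16
  have r9 : R.P 9 16 := R.swp r16
  have r15 : R.P 15 24 := R.neg r16 (by decide)
  have r11 : R.P 11 19 := R.neg r20 (by decide)
  have r12 : R.P 12 23 := R.swp r23
  have r25 : R.P 25 21 := R.swp r21
  have r18 : R.P 18 1 := R.swp r1
  have r30 : R.P 30 17 := R.neg r1 (by decide)
  have r22 : R.P 22 7 := R.neg r9 (by decide)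
  have r24 : R.P 24 15 := R.swp r15
  have r19 : R.P 19 11 := R.swp r11
  have r13 : R.P 13 14 := R.neg r18 (by decide)
  have r17 : R.P 17 30 := R.swp r30
  have r7 : R.P 7 22 := R.swp r22
  have r14 : R.P 14 13 := R.swp r13
  intro i h1 h2
  interval_cases i <;> assumption

/-- root elements -/
def X (_ : Rel s u n f) (a : F32) : G := if a = 0 then 1 else cs s u (lg a)

theorem X_ne {a : F32} (h : a ≠ 0) : R.X a = cs s u (lg a) := if_neg h

/-- the rank one relations -/
def sl2 : SL2Rel F32 G where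
  x := R.X
  y a := n * R.X a * n
  h a := u ^ (2 * lg a)
  w := n
  x_zero := if_pos rfl
  x_add a b := by
    by_cases ha : a = 0
    · simp [ha, X]
    by_cases hb : b = 0
    · simp [hb, X]
    by_cases h : a = b
    · rw [h, (lg_inv b).1, R.X_ne hb, R.cs_sq, X, if_pos rfl]
    obtain ⟨h1, h2, h3, h4⟩ := lg_add a b ha hb h
    rw [R.X_ne ha, R.X_ne hb, R.X_ne h1, ← h4, R.cs_mod, cs_add, ← R.zech _ h2 (Nat.mod_lt _ (by decide)),
      ← conj_mul, ← cs_add, ← R.cs_mod (_ + _), h3, cs]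
  h_mul a b ha hb := by
    rw [lg_mul a b ha hb, mul_comm 2 (_ % _), pow_mul u (_ % _), R.pow_mod, ← pow_mul, ← pow_add]; congr 1; ring
  h_one := by rw [lg_one, mul_zero, pow_zero]
  n_eq t ht := by
    have h := (lg_inv t).2.2 ht
    have h1 : u ^ lg t⁻¹ = (u ^ lg t)⁻¹ := eq_inv_of_mul_eq_one_right (by rw [← pow_add, ← R.pow_mod, h, pow_zero])
    have h2 : s * n * s * n * s = n := by
      rw [← R.n_inv]; exact eq_inv_of_mul_eq_one_right (by rw [R.n_inv, ← R.ns]; group)
    have h3 := R.n_pow (lg t)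
    rw [(lg_inv _).2.1, R.X_ne ht, R.X_ne (inv_ne_zero ht), cs, cs, h1, two_mul, pow_add]
    generalize u ^ lg t = v at h3 ⊢
    have h4 : v * n * v = n := by rw [mul_assoc, h3]; group
    have h5 : v⁻¹ * n * v⁻¹ = n := by rw [← h3]; group
    calc _ = v * (s * (v⁻¹ * n * v⁻¹) * s * (v * n * v) * s) * v⁻¹ := by group
      _ = v * (v * n * v) * v⁻¹ := by rw [h4, h5, h2]
      _ = _ := by group
  y_zero := by simp [X, R.nn]
  h_x a t ha := by
    by_cases ht : t = 0
    · simp [ht, X]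
    rw [R.X_ne ht, R.X_ne (mul_ne_zero (pow_ne_zero 2 ha) ht), lg_mul _ _ (pow_ne_zero 2 ha) ht, R.cs_mod, cs_add,
      pow_two, lg_mul _ _ ha ha, R.pow_mod, two_mul]
    group
  w_h a ha := by
    rw [R.n_pow]
    congr 1
    exact inv_eq_of_mul_eq_one_right (by
      rw [← pow_add, ← mul_add, mul_comm, pow_mul, ← R.pow_mod, (lg_inv a).2.2 ha, pow_zero, one_pow])
  w_w := by rw [(lg_inv _).2.1, lg_one, R.nn, mul_zero, pow_zero]
  w_x t := by rw [(lg_inv _).2.1, mul_assoc, R.nn, mul_one]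

theorem range_eq : R.sl2.hom.range = closure {s, u, n} := by
  have hs : s ∈ closure ({s, u, n} : Set G) := subset_closure (by simp)
  have hu : u ∈ closure ({s, u, n} : Set G) := subset_closure (by simp)
  have hn : n ∈ closure ({s, u, n} : Set G) := subset_closure (by simp)
  have hx (t : F32) : R.X t ∈ R.sl2.hom.range := ⟨_, R.sl2.hom_uu t⟩
  have hw : n ∈ R.sl2.hom.range := ⟨_, R.sl2.hom_ww⟩
  refine le_antisymm ?_ ((closure_le _).2 ?_)
  · rintro _ ⟨g, rfl⟩
    induction g using SL2Rel.gen_induction with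
    | hu t =>
      rw [SL2Rel.hom_uu]
      show R.X t ∈ _
      unfold X
      split_ifs
      exacts [one_mem _, mul_mem (mul_mem (pow_mem hu _) hs) (inv_mem (pow_mem hu _))]
    | hw => rw [SL2Rel.hom_ww]; exact hn
    | hmul g g' h h' => rw [map_mul]; exact mul_mem h h'
  · obtain ⟨a, ha, e⟩ := exists_lg
    have h1 : u * n ∈ R.sl2.hom.range := by
      have := R.sl2.n_eq a ha
      rw [show R.sl2.h a = u from (R.pow_mod _).symm.trans (by rw [e, pow_one])] at this
      exact (show _ = u * n from this) ▸ mul_mem (mul_mem (hx _) (mul_mem (mul_mem hw (hx _)) hw)) (hx _)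
    rintro _ (rfl | rfl | rfl)
    · simpa [R.X_ne one_ne_zero, lg_one, cs] using hx 1
    · simpa using mul_mem h1 (inv_mem hw)
    · exact hw

theorem iso : Nat.card (closure ({s, u, n} : Set G)) = 32736 ∧
    Nonempty (closure ({s, u, n} : Set G) ≃* ProjectiveSpecialLinearGroup (Fin 2) F32) := by
  have hc : center (SpecialLinearGroup (Fin 2) F32) = ⊥ := by
    rw [← card_eq_one, Cl.card_center_sl, card_eq]; simp
  have h1 : ∃ a : F32, a ≠ 0 ∧ a ^ 2 ≠ 1 := by simpa only [pow_two] using exists_sq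
  have := ProjectiveSpecialLinearGroup.rank_two_simple' h1
  have h2 : Nat.card (ProjectiveSpecialLinearGroup (Fin 2) F32) = 32736 := by
    have := Cl.gcd_mul_card_psl_two (F := F32)
    rw [card_eq, show Nat.gcd 2 (32 - 1) = 1 from rfl, one_mul] at this
    exact this
  let φ := R.sl2.hom.comp (Cl.quotCenterEquivOfBot hc).toMonoidHom
  have hr : φ.range = closure {s, u, n} := by
    rw [← R.range_eq, MonoidHom.range_comp, MonoidHom.range_eq_top.2 (MulEquiv.surjective _), MonoidHom.range_eq_map]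
  have hφ : Function.Injective φ := Cl.injective_of_isSimpleGroup φ (by
    obtain ⟨g, hg⟩ : u ∈ φ.range := hr ▸ subset_closure (by simp)
    exact ⟨g, hg ▸ R.u1⟩)
  have e := (MonoidHom.ofInjective hφ).trans (MulEquiv.subgroupCongr hr)
  exact ⟨by rw [← Nat.card_congr e.toEquiv, h2], ⟨e.symm⟩⟩

theorem f_norm [Finite G] : f ∈ N[closure ({s, u, n} : Set G)] := by
  refine mem_normalizer_of_conj_le ?_
  rw [MonoidHom.map_closure, closure_le]
  rintro _ ⟨_, rfl | rfl | rfl, rfl⟩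
  · simpa [R.fs] using Subgroup.subset_closure (by simp)
  · simpa [R.fuf] using pow_mem (Subgroup.subset_closure (by simp)) 2
  · simpa [R.fn] using Subgroup.subset_closure (by simp)

theorem of : orderOf f = 5 := by
  have : Fact (Nat.Prime 5) := ⟨by norm_num⟩
  refine orderOf_eq_prime R.f5 fun h => R.u1 ?_
  simpa [h] using R.fu

theorem ou : orderOf u = 31 := by
  have : Fact (Nat.Prime 31) := ⟨by norm_num⟩
  exact orderOf_eq_prime R.u31 R.u1

/-- the group `L₂(32):5` -/
def HH (_ : Rel s u n f) : Subgroup G := zpowers f ⊔ closure {s, u, n}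

theorem card_HH [Finite G] : Nat.card R.HH = 163680 := by
  rw [HH, card_sup_of_inf_eq_bot (.inl (zpowers_le.2 R.f_norm)) (GT.inf_eq_bot_of_coprime (by
    rw [Nat.card_zpowers, R.of, R.iso.1]; norm_num)), Nat.card_zpowers, R.of, R.iso.1]

theorem shape [Finite G] : ∃ (K : Subgroup R.HH) (F : Type) (_ : Field F) (_ : Fintype F),
    Fintype.card F = 32 ∧ K.Normal ∧ K.index = 5 ∧ Nonempty (K ≃* ProjectiveSpecialLinearGroup (Fin 2) F) := by
  obtain ⟨c, ⟨e⟩⟩ := R.iso
  have h : closure {s, u, n} ≤ R.HH := le_sup_right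
  refine ⟨(closure {s, u, n}).subgroupOf R.HH, F32, inferInstance, inferInstance, card_eq,
    (normal_subgroupOf_iff_le_normalizer h).2 (sup_le (zpowers_le.2 R.f_norm) le_normalizer), ?_,
    ⟨(subgroupOfEquivOfLe h).trans e⟩⟩
  have := card_mul_relIndex h
  rw [c, R.card_HH] at this
  show relIndex _ _ = 5
  omega

end Rel

end Cfsg.Agent.J4W
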