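import Cfsg.Agent.J4U.A
import Cfsg.Agent.TT.Three

/-!
# Groups of type `J₄`: subgroups of order `163680` are maximal
-/

set_option autoImplicit false
set_option linter.unusedSectionVars false

namespace Cfsg.Agent.J4W

open Cfsg.Agent.J4 Cfsg.Agent.J4U Cfsg.Agent.TT Cfsg.Agent.GT Subgroup

variable {G : Type*} [Group G] [Finite G]

theorem conj_zp {p : ℕ} (hp : p.Prime) {M : Subgroup G} (h : ¬ p * p ∣ Nat.card M) {a b : G} (ha : a ∈ M)
    (hb : b ∈ M) (oa : orderOf a = p) (ob : orderOf b = p) : ∃ g ∈ M, zpowers b = zpowers (g * a * g⁻¹) :=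
  let ⟨g, hg, e⟩ := syl_exists_conj hp (syl_zp hp ha oa h) (syl_zp hp hb ob h); ⟨g, hg, e.trans (conj_zpowers _ _)⟩

theorem sq_of_two {a : G} (h : orderOf a = 2) : a * a = 1 := by rw [← pow_two, ← h, pow_orderOf_eq_one]

theorem eq_of_mem_zp_two {a b : G} (oa : orderOf a = 2) (h : b ∈ zpowers a) (h1 : b ≠ 1) : b = a := by
  classical
  obtain ⟨i, hi, rfl⟩ := Finset.mem_image.1 (mem_zpowers_iff_mem_range_orderOf.1 h)
  rw [oa, Finset.mem_range] at hi
  interval_cases i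
  · exact absurd (pow_zero a) h1
  · exact pow_one a

theorem conj_two {M : Subgroup G} (h : ¬ 2 * 2 ∣ Nat.card M) {a b : G} (ha : a ∈ M) (hb : b ∈ M)
    (oa : orderOf a = 2) (ob : orderOf b = 2) : ∃ g ∈ M, g * a * g⁻¹ = b := by
  obtain ⟨g, hg, e⟩ := conj_zp Nat.prime_two h ha hb oa ob
  exact ⟨g, hg, eq_of_mem_zp_two ob (e ▸ mem_zpowers _) fun k => by
    rw [← orderOf_conj g, k, orderOf_one] at oa; omega⟩

theorem bs_inv {M : Subgroup G} {j : G} (hj : j ∈ M) (jj : j * j = 1)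
    (h : ∀ g ∈ M, ∀ r ∈ M, (orderOf r).Prime → orderOf r ≠ 2 → g * j * g⁻¹ * r * (g * j * g⁻¹)⁻¹ ≠ r⁻¹) :
    j ∈ Op 2 M := by
  refine (mem_Op_iff hj).2 (baer_suzuki (D := {d : M | ∃ g : M, g * ⟨j, hj⟩ * g⁻¹ = d}) Nat.prime_two
    (by rintro g _ ⟨k, rfl⟩; exact ⟨g * k, by group⟩) ?_ ⟨1, by simp⟩)
  have sq (g : M) : g * ⟨j, hj⟩ * g⁻¹ * (g * ⟨j, hj⟩ * g⁻¹) = 1 := Subtype.ext (by simp [conj_mul, jj])
  rintro a ⟨g, ha⟩ b ⟨k, hb⟩
  have aa : a * a = 1 := ha ▸ sq g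
  have bb : b * b = 1 := hb ▸ sq k
  have e : a * (a * b) * a⁻¹ = (a * b)⁻¹ := by
    rw [← mul_assoc, aa, one_mul, mul_inv_rev, inv_eq_of_mul_eq_one_right bb]
  have o := Nat.eq_prime_pow_of_unique_prime_dvd (p := 2) (orderOf_pos (a * b)).ne' fun {d} hd hd' => by
    by_contra n
    have o : orderOf ((a * b) ^ (orderOf (a * b) / d)) = d := orderOf_pow_orderOf_div (orderOf_pos _).ne' hd'
    refine h g g.2 _ ((a * b) ^ (orderOf (a * b) / d)).2 (by rwa [Subgroup.orderOf_coe, o])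
      (by rwa [Subgroup.orderOf_coe, o]) ?_
    have : a * (a * b) ^ (orderOf (a * b) / d) * a⁻¹ = ((a * b) ^ (orderOf (a * b) / d))⁻¹ := by
      rw [← conj_pow, e, inv_pow]
    rw [← ha] at this ⊢
    exact congrArg Subtype.val this
  refine (IsPGroup.to_sup_of_normal_right' (H := zpowers a) (K := zpowers (a * b))
    (isPGroup_zpowers (n := 1) (by rw [pow_one, pow_two, aa])) (isPGroup_zpowers (o ▸ pow_orderOf_eq_one _))
    (zpowers_le.2 (mem_normalizer_of_conj_le (by rw [conj_zpowers, e, zpowers_inv])))).to_le ((closure_le _).2 ?_)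
  rintro _ (rfl | rfl)
  · exact mem_sup_left (mem_zpowers _)
  · simpa [← mul_assoc, aa] using mul_mem_sup (mem_zpowers a) (mem_zpowers (a * _))

theorem norm_of {a b : G} (h : a * b * a⁻¹ ∈ zpowers b) : a ∈ N[zpowers b] :=
  mem_normalizer_of_conj_le (by rw [conj_zpowers]; exact zpowers_le.2 h)

theorem norm_of_comm {a b : G} (h : a * b = b * a) : a ∈ N[zpowers b] :=
  norm_of (by rw [h, mul_inv_cancel_right]; exact mem_zpowers b)

theorem sieveW : ∀ a < 22, ∀ b ∈ l64, ∀ c ∈ l32, sv (2 ^ a * (b * c)) 31 310 → 2 ^ a * (b * c) % 163680 = 0 →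
    okB (2 ^ a * (b * c)) → (2 ^ a * (b * c) % 29 = 0 → 2 ^ a * (b * c) = 86775571046077562880) ∧
      ∀ d ∈ [330, 3630, 39930], sv (2 ^ a * (b * c)) 11 d → 2 ^ a * (b * c) = 163680 ∨
        2 ^ a * (b * c) = 167608320 ∨ 2 ^ a * (b * c) = 86775571046077562880 := by decide +kernel

/-- Facts on a central element of order `11`. -/
structure XF (x : G) : Prop where
  ox : orderOf x = 11
  cN : Nat.card N[zpowers x] = 319440
  cC : Nat.card C1[x] = 31944
  syl : ∀ M : Subgroup G, x ∈ M → ∃ Q, IsPiHallOf {11} Q M ∧ M ⊓ N[Q] = M ⊓ N[zpowers x]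
  inv : ∀ (M : Subgroup G) (w j z : G), w ∈ M → j ∈ M → orderOf w = 3 → orderOf j = 2 → orderOf z = 2 →
    Commute x w → Commute x j → Commute x z → Commute z w → z ∈ M
  n3 : ∀ w : G, orderOf w = 3 → Nat.card N[zpowers w] ∣ 5322240
  a10 : ∀ E : Subgroup G, (∀ a ∈ E, a * a = 1) → Nat.card E = 2 ^ 10 → C[E] = E → 7 ∣ Nat.card N[E]

/-- The configuration. -/
structure Cf (H : Subgroup G) (u n f x w z : G) : Prop where
  cH : Nat.card H = 163680
  hu : u ∈ H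
  hn : n ∈ H
  hf : f ∈ H
  hx : x ∈ H
  hw : w ∈ H
  ou : orderOf u = 31
  on : orderOf n = 2
  of : orderOf f = 5
  ow : orderOf w = 3
  oz : orderOf z = 2
  nu : n * u * n⁻¹ = u⁻¹
  fu : f * u * f⁻¹ = u ^ 2
  fn : f * n = n * f
  xw : x * w = w * x
  nw : n * w * n⁻¹ = w⁻¹
  fw : f * w = w * f
  nx : n * x * n⁻¹ = x⁻¹
  fx : f * x * f⁻¹ = x ^ 9
  xz : x * z = z * x
  zw : z * w = w * z
  cert : ∀ M : Subgroup G, H ≤ M → z ∈ M → 29 ∣ Nat.card M

namespace Cf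

variable {H M : Subgroup G} {u n f x w z : G} (C : Cf H u n f x w z) (F : JF G) (X : XF x)
include C F

theorem nu_le : N[zpowers u] ≤ H := by
  have c : Nat.card N[zpowers u] = 310 := (F.big (31, 10) (by decide) u C.ou).2
  have h1 := orderOf_dvd_card_of_mem (mem_inf.2 ⟨C.hu, le_normalizer (mem_zpowers u)⟩)
  have h2 := orderOf_dvd_card_of_mem (mem_inf.2 ⟨C.hn, norm_of (C.nu ▸ inv_mem (mem_zpowers u))⟩)
  have h3 := orderOf_dvd_card_of_mem (mem_inf.2 ⟨C.hf, norm_of (C.fu ▸ pow_mem (mem_zpowers u) 2)⟩)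
  rw [C.ou] at h1
  rw [C.on] at h2
  rw [C.of] at h3
  have := card_pos' (H ⊓ N[zpowers u])
  exact inf_eq_right.1 (eq_of_le_of_card_ge inf_le_right (by omega))

theorem sieve (hM : H ≤ M) : (29 ∣ Nat.card M → Nat.card M = Nat.card G) ∧ ∀ d ∈ [330, 3630, 39930],
    sv (Nat.card M) 11 d → Nat.card M = 163680 ∨ Nat.card M = 167608320 ∨ Nat.card M = Nat.card G := by
  have h1 := sv_syl (by norm_num) (syl_zp (p := 31) (by norm_num) (hM C.hu) C.ou fun k =>
    absurd (k.trans (card_subgroup_dvd_card M)) (by rw [F.card]; norm_num))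
  rw [inf_eq_right.2 ((C.nu_le F).trans hM), (F.big (31, 10) (by decide) u C.ou).2] at h1
  have h2 := Nat.mod_eq_zero_of_dvd (C.cH ▸ card_dvd_of_le hM)
  have h3 := F.okB M
  obtain ⟨a, ha, b, hb, c, hc, e⟩ := exists_fac (F.card ▸ card_subgroup_dvd_card M)
  rw [e] at h1 h2 h3 ⊢
  rw [F.card]
  exact (sieveW a ha b hb c hc h1 h2 h3).imp_left fun k h => k (Nat.mod_eq_zero_of_dvd h)

omit F in
theorem dvd330 : 330 ∣ Nat.card ↥(H ⊓ N[zpowers w] ⊓ N[zpowers x]) ∨ orderOf x ≠ 11 := by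
  refine (em (orderOf x = 11)).imp_left fun o => ?_
  have h1 := orderOf_dvd_card_of_mem (mem_inf.2 ⟨mem_inf.2 ⟨C.hx, norm_of_comm C.xw⟩, le_normalizer (mem_zpowers x)⟩)
  have h2 := orderOf_dvd_card_of_mem (mem_inf.2 ⟨mem_inf.2 ⟨C.hn, norm_of (C.nw ▸ inv_mem (mem_zpowers w))⟩,
    norm_of (C.nx ▸ inv_mem (mem_zpowers x))⟩)
  have h3 := orderOf_dvd_card_of_mem (mem_inf.2 ⟨mem_inf.2 ⟨C.hf, norm_of_comm C.fw⟩,
    norm_of (C.fx ▸ pow_mem (mem_zpowers x) 9)⟩)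
  have h4 := orderOf_dvd_card_of_mem (mem_inf.2 ⟨mem_inf.2 ⟨C.hw, le_normalizer (mem_zpowers w)⟩,
    norm_of_comm C.xw.symm⟩)
  rw [o] at h1
  rw [C.on] at h2
  rw [C.of] at h3
  rw [C.ow] at h4
  omega

include X

theorem noinv (hM : H ≤ M) (h : Nat.card M ≠ Nat.card G) {j : G} (hj : j ∈ M) (oj : orderOf j = 2) :
    x * j ≠ j * x := fun e =>
  h ((C.sieve F hM).1 (C.cert M hM (X.inv M w j z (hM C.hw) hj C.ow oj C.oz C.xw e C.xz C.zw)))

theorem cases (hM : H ≤ M) (h : Nat.card M ≠ Nat.card G) :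
    Nat.card M = 163680 ∨ Nat.card M = 167608320 ∧ Nat.card ↥(M ⊓ N[zpowers x]) = 330 := by
  obtain ⟨Q, hQ, e⟩ := X.syl M (hM C.hx)
  have h1 := sv_syl (by norm_num) hQ
  rw [e] at h1
  obtain ⟨c, hc⟩ := (C.dvd330.resolve_right (by simp [X.ox])).trans (card_dvd_of_le
    (inf_le_inf_right N[zpowers x] (inf_le_left.trans hM)))
  have h2 : c ∣ 968 := Nat.dvd_of_mul_dvd_mul_left (by norm_num : 0 < 330) (by
    rw [← hc, show 330 * 968 = 319440 from rfl, ← X.cN]; exact card_dvd_of_le inf_le_right)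
  have h3 : ¬ 2 ∣ c := fun k => by
    have n : N[zpowers x] ≤ N[C1[x]] := cent_zpowers x ▸ norm_le_norm_cent _
    have l : C1[x] ≤ N[zpowers x] := cent_zpowers x ▸ cent_le_norm _
    have h4 := card_sup_mul_card_inf ((inf_le_right (a := M)).trans n)
    obtain ⟨r, hr⟩ := card_dvd_of_le (le_sup_right : C1[x] ≤ M ⊓ N[zpowers x] ⊔ C1[x])
    have h5 := card_dvd_of_le (sup_le (inf_le_right (a := M)) l)
    rw [hr, X.cC, X.cN] at h5
    rw [hr, X.cC, hc] at h4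
    have h6 : r ∣ 10 := Nat.dvd_of_mul_dvd_mul_left (by norm_num : 0 < 31944) h5
    have h7 : r * Nat.card ↥(M ⊓ N[zpowers x] ⊓ C1[x]) = 330 * c :=
      Nat.eq_of_mul_eq_mul_left (by norm_num : 0 < 31944) (by rw [← mul_assoc, h4, mul_comm])
    have h8 := Nat.le_of_dvd (by norm_num) h6
    obtain ⟨j, hj, oj⟩ := exists_mem_orderOf_eq (H := M ⊓ N[zpowers x] ⊓ C1[x]) Nat.prime_two (by
      interval_cases r <;> omega)
    exact C.noinv F X hM h hj.1.1 oj (mem_cent1.1 hj.2).symm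
  have h4 := (show ∀ c ∈ dv 968, ¬ 2 ∣ c → 330 * c ∈ [330, 3630, 39930] by decide +kernel) c (mem_dv (by norm_num) h2) h3
  rw [← hc] at h4
  refine (((C.sieve F hM).2 _ h4 h1).imp_right fun k => k.resolve_right h).imp_right fun k => ⟨k, ?_⟩
  have h5 := card_dvd_of_le (inf_le_left : M ⊓ N[zpowers x] ≤ M)
  rw [k] at h5
  simp only [List.mem_cons, List.not_mem_nil, or_false] at h4
  rcases h4 with e | e | e <;> rw [e] at h5 ⊢ <;> norm_num at h5

section
variable (hM : H ≤ M) (m : Nat.card M = 167608320) (y : Nat.card ↥(M ⊓ N[zpowers x]) = 330)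
include hM m y

theorem nx_le : M ⊓ N[zpowers x] ≤ H ⊓ N[zpowers w] := by
  have h : H ⊓ N[zpowers w] ⊓ N[zpowers x] ≤ M ⊓ N[zpowers x] := inf_le_inf_right _ (inf_le_left.trans hM)
  exact (eq_of_le_of_card_ge h (y ▸ Nat.le_of_dvd Nat.card_pos (C.dvd330.resolve_right (by simp [X.ox])))).ge.trans
    inf_le_left

theorem nw_le : M ⊓ N[zpowers w] ≤ N[zpowers x] := by
  have h : M ⊓ N[zpowers x] ≤ M ⊓ N[zpowers w] := le_inf inf_le_left ((C.nx_le F X hM m y).trans inf_le_right)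
  have h1 := card_dvd_of_le (inf_le_left : M ⊓ N[zpowers w] ≤ M)
  have h2 := (card_dvd_of_le (inf_le_right : M ⊓ N[zpowers w] ≤ _)).trans (X.n3 w C.ow)
  rw [m] at h1
  have h3 := sv_syl (by norm_num) (syl_zp (p := 11) (by norm_num) (h ⟨hM C.hx, le_normalizer (mem_zpowers x)⟩) X.ox
    fun k => absurd (k.trans h1) (by norm_num))
  rw [inf_right_comm, inf_eq_left.2 (h.trans inf_le_right), y] at h3
  obtain ⟨c, hc⟩ := card_dvd_of_le h
  rw [y] at hc
  have h4 : c ∣ 256 := Nat.dvd_of_mul_dvd_mul_left (by norm_num : 0 < 330) (hc ▸ Nat.dvd_gcd h1 h2)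
  have h5 := (show ∀ c ∈ dv 256, sv (330 * c) 11 330 → c = 1 by decide +kernel) c (mem_dv (by norm_num) h4) (hc ▸ h3)
  exact (eq_of_le_of_card_ge h (by rw [hc, h5, y])).ge.trans inf_le_right

theorem cent_dvd {a : G} (ha : a ∈ M) (oa : orderOf a = 2) : Nat.card ↥(M ⊓ C1[a]) ∣ 163840 := by
  have key : ∀ p, p.Prime → ∀ b ∈ M, orderOf b = p → ¬ p * p ∣ 167608320 →
      (∀ j ∈ M, orderOf j = 2 → b * j ≠ j * b) → ¬ p ∣ Nat.card ↥(M ⊓ C1[a]) := fun p hp b hb ob h k d => by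
    obtain ⟨r, hr, o⟩ := exists_mem_orderOf_eq hp d
    obtain ⟨g, hg, e⟩ := conj_zp hp (m ▸ h) hr.1 hb o ob
    refine k (g * a * g⁻¹) (mul_mem (mul_mem hg ha) (inv_mem hg)) (by rw [orderOf_conj, oa]) ?_
    exact mem_cent1.1 (zpowers_le.2 (conj_cent1 g a ▸ conj_mem_conj.2 hr.2) (e ▸ mem_zpowers b))
  have h1 := key 31 (by norm_num) u (hM C.hu) C.ou (by norm_num) fun j _ oj e => by
    have := orderOf_dvd_of_mem_zpowers ((F.big (31, 10) (by decide) u C.ou).1 ▸ mem_cent1.2 e.symm)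
    rw [oj, C.ou] at this; omega
  have h2 := key 11 (by norm_num) x (hM C.hx) X.ox (by norm_num) fun j hj oj =>
    C.noinv F X hM (by rw [m, F.card]; norm_num) hj oj
  have h3 := key 3 (by norm_num) w (hM C.hw) C.ow (by norm_num) fun j hj oj e => by
    obtain ⟨g, hg, rfl⟩ := conj_two (M := M ⊓ N[zpowers x]) (by rw [y]; norm_num)
      ⟨hj, C.nw_le F X hM m y ⟨hj, norm_of_comm e.symm⟩⟩ ⟨hM C.hn, norm_of (C.nx ▸ inv_mem (mem_zpowers x))⟩ oj C.on
    have h4 : g * j * g⁻¹ ∈ C[zpowers w] := conj_mem_of_mem_norm (norm_le_norm_cent _ (C.nx_le F X hM m y hg).2)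
      ((cent_zpowers w).ge (mem_cent1.2 e.symm))
    have h5 := C.nw
    rw [mem_cent1.1 ((cent_zpowers w).le h4), mul_inv_cancel_right] at h5
    have := C.ow
    rw [eq_one_of_inv (by rw [C.ow]; decide) h5.symm, orderOf_one] at this; omega
  have h4 := card_dvd_of_le (inf_le_left : M ⊓ C1[a] ≤ M)
  rw [m, show 167608320 = 163840 * 3 * 11 * 31 from rfl] at h4
  exact ((Nat.Prime.coprime_iff_not_dvd (by norm_num)).2 h3).symm.dvd_of_dvd_mul_right
    (((Nat.Prime.coprime_iff_not_dvd (by norm_num)).2 h2).symm.dvd_of_dvd_mul_right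
      (((Nat.Prime.coprime_iff_not_dvd (by norm_num)).2 h1).symm.dvd_of_dvd_mul_right h4))

theorem not_central : ¬ 32768 ∣ Nat.card ↥(M ⊓ C1[n]) := fun k => by
  have h1 := orderOf_dvd_card_of_mem (mem_inf.2 ⟨hM C.hf, mem_cent1.2 C.fn⟩)
  have h2 := Nat.le_of_dvd (by norm_num) (C.cent_dvd F X hM m y (hM C.hn) C.on)
  have h3 := ncard_conj_orbit M n
  have h0 := card_pos' (M ⊓ C1[n])
  rw [C.of] at h1
  rw [show Nat.card ↥(M ⊓ C1[n]) = 163840 by omega, m] at h3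
  have h4 := Nat.le_of_dvd (by norm_num) (Nat.dvd_gcd (C.cH ▸ card_dvd_of_le (inf_le_left : H ⊓ C1[n] ≤ H))
    ((card_dvd_of_le (inf_le_inf_right _ hM)).trans (C.cent_dvd F X hM m y (hM C.hn) C.on)))
  have h5 := conj_of_card (K := H) (a := n) (S := {v | ∃ g ∈ M, g * n * g⁻¹ = v}) (fun g hg => ⟨g, hM hg, rfl⟩) (by
    rw [C.cH, show {v | ∃ g ∈ M, g * n * g⁻¹ = v}.ncard = 1023 by omega]
    exact Nat.mul_le_mul_right 1023 h4)
  have h6 : ∀ g ∈ M, g * n * g⁻¹ ∈ H := fun g hg => by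
    obtain ⟨k, hk, e⟩ := h5 _ ⟨g, hg, rfl⟩
    exact e ▸ mul_mem (mul_mem hk C.hn) (inv_mem hk)
  have h7 : u = n * ((u ^ 16)⁻¹ * n * (u ^ 16)⁻¹⁻¹) := by
    have e : n * (u ^ 16)⁻¹ * n⁻¹ = u ^ 16 := by rw [← conj_inv, ← conj_pow, C.nu, inv_pow, inv_inv]
    rw [inv_eq_of_mul_eq_one_right (sq_of_two C.on)] at e
    rw [← mul_assoc, ← mul_assoc, e, inv_inv, ← pow_add, pow_succ', show 16 + 15 = orderOf u from C.ou.symm,
      pow_orderOf_eq_one, mul_one]
  have h8 : M ≤ H := fun g hg => by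
    have h9 : g * u * g⁻¹ ∈ H := by
      have := mul_mem (h6 g hg) (h6 _ (mul_mem hg (inv_mem (pow_mem (hM C.hu) 16))))
      rw [h7]; convert this using 1; rw [← h7]; nth_rw 1 [h7]; group
    obtain ⟨k, hk, e⟩ := conj_zp (p := 31) (by norm_num) (by rw [C.cH]; norm_num) h9 C.hu
      (by rw [orderOf_conj, C.ou]) C.ou
    have := C.nu_le F (norm_of (a := k * g) (by rw [e]; convert mem_zpowers _ using 1; group))
    exact (mul_mem_cancel_left hk).1 this
  have := card_le_of_le h8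
  rw [m, C.cH] at this; omega

theorem mem_Op {j : G} (hj : j ∈ M) (oj : orderOf j = 2) (h : 32768 ∣ Nat.card ↥(M ⊓ C1[j])) : j ∈ Op 2 M := by
  have k0 : ∀ g ∈ M, g * j * g⁻¹ ≠ n := fun g hg e => C.not_central F X hM m y (by
    rwa [← e, ← conj_cent1, ← conj_eq_self_of_mem hg, ← conj_inf, card_conj])
  have k1 : ∀ Y ≤ M, ¬ 2 * 2 ∣ Nat.card Y → n ∈ Y → ∀ g ∈ M, g * j * g⁻¹ ∉ Y := fun Y hY c hn g hg k => by
    obtain ⟨a, ha, e⟩ := conj_two c k hn (by rw [orderOf_conj, oj]) C.on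
    exact k0 (a * g) (mul_mem (hY ha) hg) (by rw [← e]; group)
  have nx : n ∈ M ⊓ N[zpowers x] := ⟨hM C.hn, norm_of (C.nx ▸ inv_mem (mem_zpowers x))⟩
  refine bs_inv hj (sq_of_two oj) fun g hg r hr hp h2 e => ?_
  have key : ∀ b ∈ M, orderOf b = orderOf r → ¬ orderOf r * orderOf r ∣ 167608320 →
      ∃ a ∈ M, a * j * a⁻¹ * b * (a * j * a⁻¹)⁻¹ = b⁻¹ := fun b hb ob h => by
    obtain ⟨a, ha, e'⟩ := conj_zp hp (m ▸ h) hr hb rfl ob
    obtain ⟨i, hi⟩ : b ∈ zpowers (a * r * a⁻¹) := e' ▸ mem_zpowers b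
    refine ⟨a * g, mul_mem ha hg, ?_⟩
    have e2 : a * g * j * (a * g)⁻¹ * (a * r * a⁻¹) * (a * g * j * (a * g)⁻¹)⁻¹ = (a * r * a⁻¹)⁻¹ := by
      rw [conj_inv (a := r), ← e]; group
    rw [← hi, ← conj_zpow, ← inv_zpow, e2]
  have mj : ∀ a ∈ M, a * j * a⁻¹ ∈ M := fun a ha => mul_mem (mul_mem ha hj) (inv_mem ha)
  have h3 := orderOf_dvd_card_of_mem hr
  rw [m, show 167608320 = 2 ^ 15 * 3 * 5 * 11 * 31 from rfl] at h3
  simp only [hp.dvd_mul, Nat.prime_dvd_prime_iff_eq hp (by norm_num : Nat.Prime 3),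
    Nat.prime_dvd_prime_iff_eq hp (by norm_num : Nat.Prime 5), Nat.prime_dvd_prime_iff_eq hp (by norm_num : Nat.Prime 11),
    Nat.prime_dvd_prime_iff_eq hp (by norm_num : Nat.Prime 31)] at h3
  rcases h3 with (((o | o) | o) | o) | o
  · exact h2 ((Nat.prime_dvd_prime_iff_eq hp Nat.prime_two).1 (hp.dvd_of_dvd_pow o))
  · obtain ⟨a, ha, e⟩ := key w (hM C.hw) (o ▸ C.ow) (by rw [o]; norm_num)
    exact k1 _ inf_le_left (by rw [y]; norm_num) nx a ha
      ⟨mj a ha, C.nw_le F X hM m y ⟨mj a ha, norm_of (e ▸ inv_mem (mem_zpowers w))⟩⟩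
  · obtain ⟨a, ha, e⟩ := key f (hM C.hf) (o ▸ C.of) (by rw [o]; norm_num)
    replace ha := mj a ha
    generalize a * j * a⁻¹ = i at ha e
    have c : i * w * i⁻¹ * f = f * (i * w * i⁻¹) := by
      have e1 : i⁻¹ * f * i = f⁻¹ := by
        calc _ = i⁻¹ * (i * f * i⁻¹)⁻¹ * i := by rw [e, inv_inv]
          _ = _ := by group
      have e2 : w * f⁻¹ = f⁻¹ * w := (Commute.inv_right (C.fw.symm : Commute w f)).eq
      calc _ = i * (w * (i⁻¹ * f * i)) * i⁻¹ := by group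
        _ = i * (i⁻¹ * f * i * w) * i⁻¹ := by rw [e1, e2]
        _ = _ := by group
    obtain ⟨c, hc, e3⟩ := conj_zp (M := M ⊓ C1[f]) Nat.prime_three (fun k => absurd
      (k.trans (m ▸ card_dvd_of_le inf_le_left)) (by norm_num)) (mem_inf.2 ⟨mul_mem (mul_mem ha (hM C.hw)) (inv_mem ha), mem_cent1.2 c⟩)
      ⟨hM C.hw, mem_cent1.2 C.fw.symm⟩ (by rw [orderOf_conj, C.ow]) C.ow
    have h4 := C.nw_le F X hM m y ⟨mul_mem hc.1 ha, norm_of (a := c * i) (by
      rw [e3]; convert mem_zpowers _ using 1; group)⟩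
    have h5 := comm_cent_of_norm (conj_mem_of_mem_norm h4 (mem_zpowers x)) (C.fx ▸ pow_mem (mem_zpowers x) 9)
    have h6 : c * i * f * (c * i)⁻¹ = f⁻¹ := by
      calc _ = c * (i * f * i⁻¹) * c⁻¹ := by group
        _ = _ := by rw [e, (Commute.inv_right (mem_cent1.1 hc.2 : Commute c f)).eq, mul_inv_cancel_right]
    rw [h6] at h5
    have h7 : f * (f * x * f⁻¹) * f⁻¹ = x := by
      calc _ = f * f * (x * (f⁻¹ * f⁻¹)) := by group
        _ = _ := by rw [← h5]; group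
    rw [C.fx, ← conj_pow, C.fx, ← pow_mul, pow_succ, mul_eq_right, ← orderOf_dvd_iff_pow_eq_one, X.ox] at h7
    omega
  · obtain ⟨a, ha, e⟩ := key x (hM C.hx) (o ▸ X.ox) (by rw [o]; norm_num)
    exact k1 _ inf_le_left (by rw [y]; norm_num) nx a ha ⟨mj a ha, norm_of (e ▸ inv_mem (mem_zpowers x))⟩
  · obtain ⟨a, ha, e⟩ := key u (hM C.hu) (o ▸ C.ou) (by rw [o]; norm_num)
    exact k1 _ ((C.nu_le F).trans hM) (by rw [(F.big (31, 10) (by decide) u C.ou).2]; norm_num)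
      (norm_of (C.nu ▸ inv_mem (mem_zpowers u))) a ha (norm_of (e ▸ inv_mem (mem_zpowers u)))

theorem not_m2 [IsSimpleGroup G] : False := by
  obtain ⟨T, hT⟩ := exists_syl Nat.prime_two M
  have pT := syl_isPGroup Nat.prime_two hT
  have cT : 32768 ∣ Nat.card T := hT.dvd_card (piNat_single_pow Nat.prime_two 15) (by rw [m]; norm_num)
  have hZ := inf_cent_ne_bot_of_isPGroup Nat.prime_two pT pT le_normalizer (by
    rintro rfl; rw [card_bot] at cT; omega)
  obtain ⟨j, hj, oj⟩ := exists_mem_orderOf_eq (H := T ⊓ C[T]) Nat.prime_two (by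
    obtain ⟨k, hk⟩ := (pT.to_le (inf_le_left (b := C[T]))).exists_card_eq
    rw [hk]; exact dvd_pow_self 2 fun e => hZ (card_eq_one.1 (by rw [hk, e, pow_zero])))
  have jM := hT.le hj.1
  have h1 := C.mem_Op F X hM m y jM oj (cT.trans (card_dvd_of_le (le_inf hT.le (mem_cent_iff_le_cent1.1 hj.2))))
  have h2 : Op 2 M ≤ T := le_syl_of_norm Nat.prime_two hT (Op_isPGroup M) (Op_le M) (hT.le.trans (le_norm_Op M))
  generalize hS : {v | ∃ g ∈ M, g * j * g⁻¹ = v} = S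
  have sq : ∀ a ∈ S, a * a = 1 := by
    subst hS; rintro _ ⟨g, -, rfl⟩; rw [conj_mul, sq_of_two oj]; simp
  have cm : ∀ a ∈ S, ∀ b ∈ S, Commute a b := by
    subst hS
    rintro _ ⟨g, hg, rfl⟩ _ ⟨k, hk, rfl⟩
    exact (mem_cent_iff_le_cent1.1 (conj_mem_of_mem_norm (le_norm_cent (le_norm_Op M) hg) (cent_anti h2 hj.2))
      (conj_mem_of_mem_norm (le_norm_Op M hk) h1) |> mem_cent1.1).symm
  have jS : j ∈ closure S := subset_closure (hS ▸ ⟨1, one_mem _, by simp⟩)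
  have EM : closure S ≤ M := (closure_le _).2 (by
    subst hS; rintro _ ⟨g, hg, rfl⟩; exact mul_mem (mul_mem hg jM) (inv_mem hg))
  have nE : M ≤ N[closure S] := fun g hg => mem_normalizer_of_conj_le (by
    rw [MonoidHom.map_closure, closure_le]
    subst hS
    rintro _ ⟨_, ⟨k, hk, rfl⟩, rfl⟩
    exact subset_closure ⟨g * k, mul_mem hg hk, by simp [mul_assoc]⟩)
  have cE : closure S ≤ C[closure S] := isMulCommutative_iff_le_cent.1
    (isMulCommutative_closure fun a ha b hb => cm a ha b hb)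
  have sE : ∀ a ∈ closure S, a * a = 1 := fun a ha => by
    induction ha using closure_induction with
    | mem y hy => exact sq y hy
    | one => simp
    | mul a b ha hb e1 e2 => exact mul_self_of_commute e1 e2 (le_cent_iff.1 cE b hb a ha)
    | inv a _ e => rw [← mul_inv_rev, e, inv_one]
  generalize closure S = E at *
  have j1 : j ≠ 1 := fun e => by rw [e, orderOf_one] at oj; omega
  have cu := (F.big (31, 10) (by decide) u C.ou).1
  have ju : u ∉ C1[j] := fun k => by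
    have := orderOf_dvd_of_mem_zpowers (cu ▸ mem_cent1_comm.1 k)
    rw [oj, C.ou] at this; omega
  have fu : ∀ D ≤ C1[j], M ≤ N[D] → Nat.card D % 31 = 1 := fun D hD hn =>
    card_modEq_one (p := 31) (by norm_num) (C.ou ▸ pow_orderOf_eq_one u) (hn (hM C.hu)) fun d hd e => by_contra fun k =>
      ju (zpowers_le.2 (hD hd) (eq_zpowers_of_card_prime (by rw [Nat.card_zpowers, C.ou]; norm_num)
        (cu ▸ mem_cent1.2 e.symm) k ▸ mem_zpowers u))
  have h3 := fu E (cE.trans (cent_le_cent1 jS)) nE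
  have h4 := card_modEq_one (p := 11) (by norm_num) (X.ox ▸ pow_orderOf_eq_one x) (nE (hM C.hx)) fun d hd e =>
    by_contra fun k => C.noinv F X hM (by rw [m, F.card]; norm_num) (EM hd)
      (orderOf_eq_prime (by rw [pow_two, sE d hd]) k) e
  obtain ⟨k, hk⟩ := (pg_of_sq sE).exists_card_eq
  have h5 : k ≤ 15 := le_of_pow_dvd (hk ▸ m ▸ card_dvd_of_le EM) (by norm_num)
  have h6 := ne_bot_iff_one_lt_card.1 fun e : E = ⊥ => j1 (mem_bot.1 (e ▸ jS))
  rw [hk] at h3 h4 h6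
  obtain rfl := (show ∀ k ≤ 15, 2 ^ k % 31 = 1 → 2 ^ k % 11 = 1 % 11 → 1 < 2 ^ k → k = 10 by decide) k h5 h3 h4 h6
  have h7 : N[E] ≤ M := by
    have n : Nat.card N[E] ≠ Nat.card G := fun e => by
      rcases (normalizer_eq_top_iff.1 (eq_top_of_card_eq _ e)).eq_bot_or_eq_top with e | e
      · rw [e, card_bot] at hk; omega
      · rw [e, card_top, F.card] at hk; omega
    have := card_le_of_le nE
    exact (eq_of_le_of_card_ge nE (by rcases C.cases F X (hM.trans nE) n with e | e <;> omega)).ge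
  have h8 := fu C[E] (cent_le_cent1 jS) (le_norm_cent nE)
  have h9 := (card_dvd_of_le (le_inf ((cent_le_norm E).trans h7) (cent_le_cent1 jS))).trans
    (C.cent_dvd F X hM m y jM oj)
  obtain ⟨c, hc⟩ := card_dvd_of_le cE
  rw [hc, hk] at h8 h9
  rcases (show ∀ c ∈ dv 160, 2 ^ 10 * c % 31 = 1 → c = 1 ∨ c = 32 by decide +kernel) c
    (mem_dv (by norm_num) (Nat.dvd_of_mul_dvd_mul_left (by norm_num : 0 < 2 ^ 10) h9)) h8 with rfl | rfl
  · have := (X.a10 E sE hk (eq_of_le_of_card_ge cE (by omega)).symm).trans (card_dvd_of_le h7)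
    rw [m] at this; omega
  · rw [hk] at hc
    have pD : IsPGroup 2 C[E] := IsPGroup.of_card (n := 15) hc
    have hD := syl_of_card_le Nat.prime_two hT pD ((cent_le_norm E).trans h7) (by
      obtain ⟨i, hi⟩ := pT.exists_card_eq
      rw [hi, hc]
      exact Nat.pow_le_pow_right (by norm_num) (le_of_pow_dvd (n := 15) (hi ▸ m ▸ card_dvd_of_le hT.le) (by norm_num)))
    have inv : ∀ a ∈ M, a * a = 1 → a ∈ C[E] := fun a ha e => le_syl_of_le_norm Nat.prime_two hD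
      (isPGroup_zpowers (n := 1) (by rw [pow_one, pow_two, e])) (zpowers_le.2 ha)
      (zpowers_le.2 (le_norm_cent nE ha)) (mem_zpowers a)
    have nn := sq_of_two C.on
    refine ju (cent_le_cent1 jS ((mul_mem_cancel_left (inv n (hM C.hn) nn)).1 (inv _ (hM (mul_mem C.hn C.hu)) ?_)))
    rw [← mul_assoc, ← inv_eq_of_mul_eq_one_right nn, inv_eq_of_mul_eq_one_right nn]
    nth_rw 2 [← inv_eq_of_mul_eq_one_right nn]
    rw [C.nu, inv_mul_cancel]

end

theorem coatom [IsSimpleGroup G] : IsCoatom H :=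
  coatom_of (by rw [C.cH, F.card]; norm_num) fun M hM => or_iff_not_imp_right.2 fun h =>
    (C.cases F X hM h).elim (fun e => e.trans C.cH.symm) fun e => (C.not_m2 F X hM e.1 e.2).elim

end Cf

end Cfsg.Agent.J4W
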