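import Cfsg.Agent.J4W.B
import Cfsg.Agent.J4W.A

/-!
# Groups of type `J₄`: the local facts at the prime `11`
-/

set_option autoImplicit false
set_option linter.unusedSectionVars false

namespace Cfsg.Agent.J4W

open Cfsg.Agent.J4 Cfsg.Agent.J4U Cfsg.Agent.M24 Cfsg.Agent.TT Cfsg.Agent.GT Subgroup

theorem XF.conj {G : Type*} [Group G] [Finite G] {x : G} (X : XF x) (c : G) : XF (c * x * c⁻¹) := by
  refine ⟨by rw [orderOf_conj, X.ox], by rw [← conj_zpowers, ← conj_normalizer, card_conj, X.cN],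
    by rw [← conj_cent1, card_conj, X.cC], fun M hM => ?_, fun M w j z hw hj ow oj oz h1 h2 h3 h4 => ?_, X.n3, X.a10⟩
  · obtain ⟨Q, h1, h2⟩ := X.syl (cj[c⁻¹] M) (mem_conj.2 (by simpa using hM))
    exact ⟨cj[c] Q, conj_inv_conj c M ▸ syl_conj h1 c, by
      rw [← conj_zpowers, ← conj_normalizer, ← conj_normalizer, ← conj_inv_conj c M, ← conj_inf, ← conj_inf, h2]⟩
  · have k (a : G) (h : Commute (c * x * c⁻¹) a) : Commute x (c⁻¹ * a * c⁻¹⁻¹) := by
      simpa [mul_assoc] using h.conj c⁻¹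
    exact conj_mem_conj.1 (X.inv (cj[c⁻¹] M) _ _ _ (conj_mem_conj.2 hw) (conj_mem_conj.2 hj) (by rwa [orderOf_conj])
      (by rwa [orderOf_conj]) (by rwa [orderOf_conj]) (k w h1) (k j h2) (k z h3) (h4.conj c⁻¹))

section
variable {G H : Type*} [Group G] [Group H] [Finite G] {ι : H →* G} {z ω : H} {s : ℕ → H} {Λ : H →* R}
  {M : GM ι z ω s Λ} {y g : H} {T : ℕ → H} {π : N[M.V] →* M24} {κ : M24 →* N[M.V]} (J : JD M y g T π κ)
  (hG : ∀ g : M24, g * g = 1 → g ≠ 1 → J.mc.Good g)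
include J hG

omit hG in
theorem inv_mul_z {x v : H} (D : XD M.toHM x v) {j : G} (oj : orderOf j = 2) (hj : j ∈ C1[ι x]) :
    j * ι z ∈ OC (ι x) := by
  have := M.finH
  have E := J.el D
  obtain ⟨o, ho, e⟩ := zstar_sub E.zz E.zX E.iso hj
  have h1 : o⁻¹ * j ∈ C1[ι x] := mul_mem (inv_mem (OC_le _ ho)) hj
  have h2 : (o⁻¹ * j) ^ 2 ∈ zpowers (ι x) := E.oz ⟨by
    have := mul_mem (inv_mem ho) (conj_mem_of_mem_norm (le_norm_OC _ hj) (inv_mem ho))
    rwa [inv_eq_of_mul_eq_one_right (sq_of_two oj), ← mul_assoc, ← mul_assoc, mul_assoc, ← pow_two] at this,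
    pow_mem e 2⟩
  obtain ⟨h, hh⟩ := M.surj _ (mem_cent1.1 e)
  have h3 : h ^ 11 * h ^ 11 = 1 := M.inj (by
    rw [← pow_add, map_pow, hh, map_one, show 11 + 11 = 2 * 11 from rfl, pow_mul, E.pow11 h2])
  have h4 : h ^ 11 ∈ C1[x] := pow_mem (mem_cent1.2 (M.inj (by rw [map_mul, map_mul, hh, mem_cent1.1 h1]))) 11
  have h5 : j = o * ((o⁻¹ * j) ^ 11 * (((o⁻¹ * j) ^ 2) ^ 5)⁻¹) := by group
  have h6 := inv_mem (pow_mem h2 5)
  generalize (((o⁻¹ * j) ^ 2) ^ 5)⁻¹ = k at h5 h6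
  have h7 := mul_mem ho (zpowers_le.2 E.X_mem h6)
  rw [← hh, ← map_pow] at h5
  rcases D.inv_cases h4 h3 with e | e
  · rw [e, map_one, one_mul] at h5
    have := odd_of_OC h7
    rw [← h5, oj] at this
    exact absurd this (by decide)
  · rwa [h5, e, ← (zp_comm h6 E.zX).eq, mul_assoc, mul_assoc, E.zz, mul_one]

theorem xf_of {x v : H} (D : XD M.toHM x v) : XF (ι x) := by
  have := M.finH
  have E := J.el D
  have p11 : Nat.Prime 11 := by norm_num
  refine ⟨E.oX, J.card_norm_x D, E.card_cent, fun K hK => ⟨K ⊓ OC (ι x), ?_, le_antisymm ?_ ?_⟩,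
    fun K w j a hw hj ow oj oa h1 h2 h3 h4 => ?_, fun w o => ?_, fun A a1 a2 a3 => ?_⟩
  · obtain ⟨P, hP, hx⟩ := exists_syl_ge p11 (isPGroup_of_card_eq_prime (by rw [Nat.card_zpowers, E.oX]))
      (zpowers_le.2 hK)
    obtain ⟨b, -, hb⟩ := syl_exists_le_conj p11 E.syl (syl_isPGroup p11 hP) le_top
    rw [conj_eq_self (inv_mem_iff.1 (J.norm_of_mem hG D (by simpa using mem_conj.1 (hb (hx (mem_zpowers _))))))] at hb
    rwa [syl_eq_of_le p11 hP (E.isP.to_le inf_le_right) inf_le_left (le_inf hP.le hb)]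
  · exact fun a ha => ⟨ha.1, (J.norm_U hG D).1 ▸ J.norm_of_mem hG D (conj_mem_of_mem_norm ha.2 ⟨hK, E.X_mem⟩).2⟩
  · exact le_inf inf_le_left (le_norm_inf (le_norm_self inf_le_left) (inf_le_right.trans (J.norm_U hG D).1.ge))
  · have ha : a ∈ C1[ι x] := mem_cent1.2 h3.symm
    have aa := sq_of_two oa
    have key : ∀ i ∈ C1[ι x], orderOf i = 2 → i * a ∈ OC (ι x) := fun i hi oi => by
      simpa [mul_assoc, inv_eq_of_mul_eq_one_right aa] using
        mul_mem (inv_mul_z J D oi hi) (inv_mem (inv_mul_z J D oa ha))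
    have n1 : zpowers a ≤ N[OC (ι x)] := zpowers_le.2 (le_norm_OC _ ha)
    have c1 := card_sup_dvd (.inl n1)
    rw [Nat.card_zpowers, oa, E.card_OC] at c1
    have c2 := (card_dvd_of_le (inf_le_right (a := K))).trans c1
    have n2 : zpowers w ≤ N[K ⊓ (zpowers a ⊔ OC (ι x))] := le_norm_inf (le_norm_self (zpowers_le.2 hw))
      (le_norm_sup (zpowers_le.2 (norm_of_comm h4.symm)) (zpowers_le.2 (le_norm_OC _ (mem_cent1.2 h1.symm))))
    obtain ⟨P, hP, nP⟩ := coprime_exists_syl Nat.prime_two (.inr inferInstance) n2 (by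
      rw [Nat.card_zpowers, ow]; exact Nat.Coprime.coprime_dvd_left c2 (by norm_num))
    have hj' : j ∈ K ⊓ (zpowers a ⊔ OC (ι x)) := ⟨hj, by
      have := mul_mem (mem_sup_right (S := zpowers a) (key j (mem_cent1.2 h2.symm) oj)) (mem_sup_left (mem_zpowers a))
      rwa [mul_assoc, aa, mul_one] at this⟩
    obtain ⟨b, hb, e⟩ := syl_exists_conj Nat.prime_two (syl_zp Nat.prime_two hj' oj fun k =>
      absurd (k.trans c2) (by norm_num)) hP
    rw [e, conj_zpowers] at nP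
    have oi : orderOf (b * j * b⁻¹) = 2 := by rw [orderOf_conj, oj]
    have hi := mul_mem (mul_mem hb hj') (inv_mem hb)
    generalize b * j * b⁻¹ = i at nP oi hi
    have wi : w * i * w⁻¹ = i := eq_of_mem_zp_two oi (conj_mem_of_le_norm nP (mem_zpowers w) (mem_zpowers i)) fun k => by
      rw [← orderOf_conj w, k, orderOf_one] at oi; omega
    have ix : i ∈ C1[ι x] := sup_le (zpowers_le.2 ha) (OC_le _) hi.2
    have h5 : i * a ∈ zpowers (ι x) := by_contra fun k => by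
      have := orderOf_dvd_card_of_mem (mem_cent1.2
        (Commute.mul_right (mul_inv_eq_iff_eq_mul.1 wi : Commute w i) h4.symm).eq)
      rw [J.nc11 hG D (key i ix oi) k, ow] at this
      omega
    have h6 : i * a = 1 := E.eq_one_of h5 (r := 2) (by norm_num) (by
      have := (zp_comm h5 ha).eq
      rw [mul_assoc, aa, mul_one, ← mul_assoc] at this
      rw [pow_two, mul_assoc, ← mul_assoc a, ← this, sq_of_two oi])
    exact inv_mem_iff.1 (eq_inv_of_mul_eq_one_left h6 ▸ hi.1)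
  · obtain ⟨c, rfl⟩ := isConj_iff.1 (J.conj_ω3 o)
    rw [← conj_zpowers, ← conj_normalizer, card_conj]
    have h1 : N[zpowers (ι ω)] ≤ (N[zpowers ω] ⊓ Lm.comap Λ).map ι := fun n hn => by
      obtain ⟨h, rfl⟩ := M.surj n (J.norm_ω hn)
      rw [← MonoidHom.map_zpowers, map_mem_norm_map_iff M.inj] at hn
      exact mem_map_of_mem ι ⟨hn, M.mem h⟩
    have h2 := card_dvd_of_le h1
    rwa [card_map_inj M.inj, M.card_norm_inf le_rfl, card_Lm] at h2
  · obtain ⟨c, hc⟩ := M.conj_A' (elem_of_sq a1) a2 a3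
    obtain ⟨⟨B, b1, -, -, ⟨e⟩⟩, -⟩ := J.ms.norm_A OA_mem (elem_of_sq M.A_sq) M.card_A M.A_le_norm J.pi_A J.card_A_inf
      M.seven_A J.duad_A M.z_mem_A M.fusion_A M.card_norm_A_inf M.cent_A
    rw [← card_conj c, conj_normalizer, hc]
    exact Dvd.dvd.trans (by rw [Nat.card_congr e.toEquiv, card_SL5]; norm_num) (card_dvd_of_le b1)

theorem xf_all {a w : G} (oa : orderOf a = 11) (ow : orderOf w = 3) (h : a * w = w * a) : XF a := by
  obtain ⟨x, v, D⟩ := J.exists_xd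
  obtain ⟨c1, c2⟩ := J.cls11 hG J.card_c5 J.card_c7 D
  rcases c2 a oa with e | e
  · obtain ⟨c, rfl⟩ := isConj_iff.1 e
    exact (xf_of J hG D).conj c
  · have := orderOf_dvd_card_of_mem (mem_cent1.2 h.symm)
    rw [card_cent_of_isConj e, c1, ow] at this
    omega

end

end Cfsg.Agent.J4W
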