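import Cfsg.Agent.J4W.C
import Cfsg.Agent.J4W.D
import Cfsg.Agent.JQ.D

/-!
# Groups of type `J₄`: a maximal subgroup `L₂(32):5`
-/

set_option autoImplicit false

namespace Cfsg.Agent.J4W

open Cfsg.Agent.J4 Cfsg.Agent.J4U Cfsg.Agent.J4M Cfsg.Agent.M24 Cfsg.Agent.GT Subgroup

theorem exists_cf {G : Type*} [Group G] [Finite G] [IsSimpleGroup G] (e : G ≃* Spor.J4) :
    ∃ s u n f x z : G, ∃ R : Rel s u n f, orderOf x = 11 ∧ Cf R.HH u n f x (n * s) z := by
  obtain ⟨code, C, hS⟩ := exists_code e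
  have h := valid_of_in (slp_in C hS k_slp)
  obtain ⟨s, hs⟩ := h eS (by simp)
  obtain ⟨u, hu⟩ := h eU (by simp)
  obtain ⟨n, hn⟩ := h J4M.cX (by simp)
  obtain ⟨f, hf⟩ := h eF (by simp)
  obtain ⟨z, hz⟩ := h eZ (by simp)
  obtain ⟨x, hx', hx⟩ : In code [eS, eU, J4M.cX] eX := by
    rw [← k_x.1]; exact in_pw C (fun a ha => h a (by simp at ha ⊢; tauto)) _
  obtain ⟨g, hg', hg⟩ : In code [eS, eU, J4M.cX, eF, eZ] eG := by
    rw [← k_x.2]; exact in_pw C h _
  obtain ⟨o1, o2, o3, o4, o5, o6, o7⟩ := k_o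
  have ou := ordP_sound C (by norm_num) hu o1
  have on := ordP_sound C (by norm_num) hn o2
  have of := ordP_sound C (by norm_num) hf o3
  have ow := ordP_sound C (g := n * s) (by norm_num) (by rw [C.code_mul, hn, hs]) o4
  have k := k_r
  rw [← hs, ← hu, ← hn, ← hf, ← hz, ← hx, ← C.code_one] at k
  simp only [C.code_one, C.cpow_code] at k
  simp only [← C.code_one, ← C.code_mul, C.inj.eq_iff] at k
  obtain ⟨r1, r2, r3, r4, r5, r6, r7, r8, r9, r10, r11⟩ := k
  have nn := sq_of_two on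
  have R : Rel s u n f := ⟨r1, nn, ou ▸ pow_orderOf_eq_one u, of ▸ pow_orderOf_eq_one f, r2,
    by rw [← pow_three', ← ow, pow_orderOf_eq_one], r3, r4, r5, r6, fun k => by rw [k, orderOf_one] at ou; omega⟩
  have ms : s ∈ R.HH := mem_sup_right (subset_closure (by simp))
  have mu : u ∈ R.HH := mem_sup_right (subset_closure (by simp))
  have mn : n ∈ R.HH := mem_sup_right (subset_closure (by simp))
  have mf : f ∈ R.HH := mem_sup_left (mem_zpowers f)
  refine ⟨s, u, n, f, x, z, R, ordP_sound C (by norm_num) hx o6, R.card_HH, mu, mn, mf, gen_le (fun a ha => ?_) hx',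
    mul_mem mn ms, ou, on, of, ow, ordP_sound C (by norm_num) hz o5, R.nun, R.fuf, r4, r7, ?_, ?_, ?_, ?_, r10, r11,
    fun M hM zM => ?_⟩
  · simp only [← hs, ← hu, ← hn, List.mem_cons, C.inj.eq_iff, List.not_mem_nil, or_false] at ha
    rcases ha with rfl | rfl | rfl <;> assumption
  · rw [← mul_assoc, nn, one_mul, mul_inv_rev, R.s_inv]
  · rw [← mul_assoc, r4, mul_assoc, r3, mul_assoc]
  · rw [R.n_inv]; exact eq_inv_of_mul_eq_one_left r8
  · rw [r9, mul_inv_cancel_right]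
  · rw [← ordP_sound C (by norm_num) hg o7]
    refine orderOf_dvd_card_of_mem (gen_le (fun a ha => ?_) hg')
    simp only [← hs, ← hu, ← hn, ← hf, ← hz, List.mem_cons, C.inj.eq_iff, List.not_mem_nil, or_false] at ha
    rcases ha with rfl | rfl | rfl | rfl | rfl
    exacts [hM ms, hM mu, hM mn, hM mf, zM]

/-- The third conjunct of the list of non-local maximal subgroups. -/
theorem l232 {G : Type*} [Group G] [Finite G] [IsSimpleGroup G] (hG : ¬ IsMulCommutative G)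
    (hJ : IsOfJankoFourType G) : ∃ M : Subgroup G, IsCoatom M ∧ ∃ (K : Subgroup M) (F : Type) (_ : Field F)
      (_ : Fintype F), Fintype.card F = 32 ∧ K.Normal ∧ K.index = 5 ∧
        Nonempty (K ≃* Matrix.ProjectiveSpecialLinearGroup (Fin 2) F) := by
  obtain ⟨z, hJ⟩ := hJ
  obtain ⟨ω, s, Λ, M, y, g, T, π, κ, J, h⟩ := exists_jg hG hJ
  obtain ⟨e⟩ := JQ.iso_of_gm hG M
  obtain ⟨s, u, n, f, x, z, R, o, C⟩ := exists_cf e
  exact ⟨R.HH, C.coatom (jf_of J h) (xf_all J h o C.ow C.xw), R.shape⟩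

end Cfsg.Agent.J4W
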